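import Mathlib
import Cfsg.Prelude.Def_FischerSpaces
import Cfsg.Agent.Fischer545.TEight
set_option linter.all false

set_option autoImplicit false

/-!
# The widths of the 3-transposition groups of types `T6`, `T7`, `T8`

The maximal commuting subsets of `D` have 22, 23, 24 members.
-/

namespace Cfsg.Agent.H810.Width

open Cfsg Cfsg.Agent.Fischer545.Comb Cfsg.Agent.Fischer545.Uni Cfsg.Agent.Fischer480.Defs
open Cfsg.Agent.SporadicStructure.FischerSpace
open scoped Classical

noncomputable section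

variable {G : Type*} [Group G] {D : Set G}

/-- a base of `D` minus a member `x` is a base of `D_x` -/
theorem erase_base {E : Finset G} (hE : IsBase D E) {x : G} (hx : x ∈ E) :
    IsBase (Loc D x) (E.erase x) where
  sub a ha := by
    rw [Finset.mem_erase] at ha
    exact ⟨hE.sub a ha.2, ha.1, hE.comm x hx a ha.2⟩
  comm a ha b hb := hE.comm a (Finset.mem_of_mem_erase ha) b (Finset.mem_of_mem_erase hb)
  max g hg hc := by
    obtain ⟨hgD, hgx, hxg⟩ := hg
    rw [Finset.mem_erase]
    refine ⟨hgx, hE.max g hgD ?_⟩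
    intro a ha
    by_cases hax : a = x
    · rw [hax]; exact hxg.symm
    · exact hc a (Finset.mem_erase.2 ⟨hax, ha⟩)

theorem base_nonempty {E : Finset G} (hE : IsBase D E) (hD : D.Nonempty) : ∃ x, x ∈ E := by
  by_contra hcon
  push Not at hcon
  obtain ⟨d, hd⟩ := hD
  exact hcon d (hE.max d hd fun a ha => absurd ha (hcon a))

theorem card_succ {E : Finset G} (hE : IsBase D E) (hD : D.Nonempty) {n : ℕ}
    (h : ∀ x ∈ D, ∀ E : Finset G, IsBase (Loc D x) E → E.card = n) : E.card = n + 1 := by
  obtain ⟨x, hx⟩ := base_nonempty hE hD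
  have h1 := h x (hE.sub x hx) _ (erase_base hE hx)
  rw [Finset.card_erase_of_mem hx] at h1
  have h2 : 0 < E.card := Finset.card_pos.2 ⟨x, hx⟩
  omega

omit [Group G] in
theorem nonempty_of_ncard {E : Set G} {n : ℕ} (h : E.ncard = n) (hn : n ≠ 0) : E.Nonempty := by
  rw [Set.nonempty_iff_ne_empty]
  rintro rfl
  rw [Set.ncard_empty] at h
  exact hn h.symm

section Fin

variable [Fintype G]

theorem base_U6 {D : Set G} (h : IsU 6 D) {E : Finset G} (hE : IsBase D E) : E.card = 21 := by
  obtain ⟨F, iF, iF', f, hF, h2, h3, h4, h5, h6⟩ := h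
  exact card_base (f := f) (by rw [hF]; norm_num) ⟨h2, h3, h4, h5, h6⟩ hE

theorem base_T6 {D : Set G} (h : IsT6 D) {E : Finset G} (hE : IsBase D E) : E.card = 22 :=
  card_succ hE (nonempty_of_ncard h.1 (by norm_num)) fun x hx _ hE' => base_U6 (h.2.1 x hx) hE'

theorem base_T7 {D : Set G} (h : IsT7 D) {E : Finset G} (hE : IsBase D E) : E.card = 23 :=
  card_succ hE (nonempty_of_ncard h.1 (by norm_num)) fun x hx _ hE' => base_T6 (h.2.1 x hx) hE'

theorem base_T8 {D : Set G} (h : IsT8 D) {E : Finset G} (hE : IsBase D E) : E.card = 24 :=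
  card_succ hE (nonempty_of_ncard h.1 (by norm_num)) fun x hx _ hE' => base_T7 (h.2.1 x hx) hE'

/-- every commuting subset lies in a base -/
theorem exists_base_ge {S : Finset G} (hS : ∀ a ∈ S, a ∈ D)
    (hc : ∀ a ∈ S, ∀ b ∈ S, Commute a b) : ∃ E, IsBase D E ∧ S ⊆ E := by
  have hne : (Finset.univ.filter (fun E : Finset G => S ⊆ E ∧ (∀ a ∈ E, a ∈ D) ∧
      ∀ a ∈ E, ∀ b ∈ E, Commute a b)).Nonempty :=
    ⟨S, by rw [Finset.mem_filter]; exact ⟨Finset.mem_univ _, subset_rfl, hS, hc⟩⟩
  obtain ⟨E, hE, hmax⟩ := Finset.exists_max_image _ Finset.card hne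
  rw [Finset.mem_filter] at hE
  obtain ⟨-, h1, h2, h3⟩ := hE
  refine ⟨E, ⟨h2, h3, ?_⟩, h1⟩
  intro g hg hgc
  by_contra hgE
  have h4 := hmax (insert g E) (by
    rw [Finset.mem_filter]
    refine ⟨Finset.mem_univ _, h1.trans (Finset.subset_insert _ _), ?_, ?_⟩
    · intro a ha
      rw [Finset.mem_insert] at ha
      rcases ha with rfl | ha
      · exact hg
      · exact h2 a ha
    · intro a ha b hb
      rw [Finset.mem_insert] at ha hb
      rcases ha with rfl | ha <;> rcases hb with rfl | hb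
      · exact Commute.refl _
      · exact hgc b hb
      · exact (hgc a ha).symm
      · exact h3 a ha b hb)
  rw [Finset.card_insert_of_notMem hgE] at h4
  omega

end Fin

/-- if all bases have `n` members, the width is `n` -/
theorem width_eq [Finite G] {D : Set G} {n : ℕ}
    (h : ∀ E : Finset G, IsBase D E → E.card = n) : commutingWidth D = n := by
  have := Fintype.ofFinite G
  have hub : ∀ m ∈ {m : ℕ | ∃ E : Set G, E ⊆ D ∧ E.Finite ∧ (∀ a ∈ E, ∀ b ∈ E, Commute a b) ∧
      E.ncard = m}, m ≤ n := by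
    rintro m ⟨E, hE, hfin, hc, rfl⟩
    obtain ⟨B, hB, hEB⟩ := exists_base_ge (D := D) (S := hfin.toFinset)
      (fun a ha => hE (hfin.mem_toFinset.1 ha))
      (fun a ha b hb => hc a (hfin.mem_toFinset.1 ha) b (hfin.mem_toFinset.1 hb))
    rw [← h B hB, Set.ncard_eq_toFinset_card _ hfin]
    exact Finset.card_le_card hEB
  obtain ⟨B, hB, -⟩ := exists_base_ge (D := D) (S := ∅) (by simp) (by simp)
  apply le_antisymm
  · exact csSup_le ⟨n, (B : Set G), fun a ha => hB.sub a ha, B.finite_toSet,
      fun a ha b hb => hB.comm a ha b hb, by rw [Set.ncard_coe_finset, h B hB]⟩ hub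
  · exact le_csSup ⟨n, hub⟩ ⟨(B : Set G), fun a ha => hB.sub a ha, B.finite_toSet,
      fun a ha b hb => hB.comm a ha b hb, by rw [Set.ncard_coe_finset, h B hB]⟩

/-- **The width in case `T6`** -/
theorem width_T6 [Finite G] {D : Set G} (h : IsT6 D) : commutingWidth D = 22 := by
  have := Fintype.ofFinite G
  exact width_eq fun E hE => base_T6 h hE

/-- **The width in case `T7`** -/
theorem width_T7 [Finite G] {D : Set G} (h : IsT7 D) : commutingWidth D = 23 := by
  have := Fintype.ofFinite G
  exact width_eq fun E hE => base_T7 h hE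

/-- **The width in case `T8`** -/
theorem width_T8 [Finite G] {D : Set G} (h : IsT8 D) : commutingWidth D = 24 := by
  have := Fintype.ofFinite G
  exact width_eq fun E hE => base_T8 h hE

end

end Cfsg.Agent.H810.Width
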